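import Mathlib
import Cfsg.Agent.Lib.StdW.ModA
import Cfsg.Agent.Lib.StdW.ModB
import Cfsg.Agent.Lib.Leech.OutMH
import Cfsg.Agent.Lib.Golay.Out

/-! The models `M23` and `McL:2` of `Fx`. -/

set_option autoImplicit false

namespace H36.SW

open H54 H92.SW Cfsg

theorem fx_M23 : ∃ (X : Type) (_ : Group X) (_ : Finite X) (F : Fx X),
    Nonempty (F.J ≃* Cfsg.Spor.M23) := by
  obtain ⟨lt, m⟩ := exists_md (D := A.D) X24 (K24_sub _) goodTop_M23 goodTop_M23 A.val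
  have := H15.isSimple_M23
  obtain ⟨F, e⟩ := m.fx Subgroup.topEquiv (by rw [H15.card_Out_M23, one_mul, Subgroup.card_top])
    chM23_low (.inl rfl) A.k2 A.k3 A.k4 A.kP A.ke A.k5 A.k6
  exact ⟨_, _, inferInstance, F, ⟨e ▸ Subgroup.topEquiv⟩⟩

theorem fx_McL : ∃ (X : Type) (_ : Group X) (_ : Finite X) (F : Fx X),
    Nonempty (F.J ≃* Cfsg.Spor.McL) := by
  have := H16.finite_Co0
  have := H16.simple_sMcL
  have a := H16.good_Co3.rest (fun h => by cases h)
  have h := H16.good_McL'.2.ge.trans (grp_le a.K_le (a.all_in H16.X276 (by decide +kernel)))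
  have K := Kfix_sub_eq_bot H16.K276 (H16.Stab H16.vV ⊓
    MulAction.stabilizer Co0 (H16.pt276 H16.chCo3.base))
  obtain ⟨lt, m⟩ := exists_md (D := B.D) H16.X276 K a.top (H16.good_McL.subgroupOf h) B.val
  let φ := (Subgroup.subgroupOfEquivOfLe h).trans H16.eMcL.symm
  obtain ⟨F, e⟩ := m.fx φ (by
    rw [H16.card_Out_McL, m.aJ.card m.x K, card_of_good_top m.x K m.aX]; decide +kernel)
    H16.chMcL_low (.inr B.ko) B.k2 B.k3 B.k4 B.kP B.ke B.k5 B.k6
  exact ⟨_, _, inferInstance, F, ⟨e ▸ φ⟩⟩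

end H36.SW
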