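import Mathlib
import Cfsg.Agent.Lib.StdW.D3

/-! `t` controls `H = N({A, A^t})`. -/

set_option autoImplicit false
set_option linter.unusedSectionVars false

namespace H36.SW

open Subgroup H69
open scoped commutatorElement

variable {X : Type} [Group X] {G : Type*} [Group G]
variable {F : Fx X} {t : G} {L O : Subgroup G} {α : G → X} {a u : G} {A : Subgroup G} {β : G → X}

theorem Fx.comm_mem (F : Fx X) (x y : X) : ⁅x, y⁆ ∈ F.J := by
  rw [commutatorElement_def]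
  by_cases hx : x ∈ F.J
  · rw [mul_assoc, mul_assoc, ← mul_assoc y]; exact mul_mem hx (F.cjJ (inv_mem hx) y)
  · by_cases hy : y ∈ F.J
    · exact mul_mem (F.cjJ hy x) (inv_mem hy)
    · rw [mul_assoc]; exact mul_mem (F.sq x hx y hy) (F.sq _ (by rwa [inv_mem_iff]) _ (by rwa [inv_mem_iff]))

theorem W0.rank [Finite G] (w : W0 F t L O α) {E : Subgroup G} (h1 : ∀ e ∈ E, e * t = t * e)
    (h2 : ∀ e ∈ E, e * e = 1) : Nat.card E ≤ 32 := by
  have hc := w.cov.card_im (E := E) fun e he => w.CN e (h1 e he)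
  have hc2 : Nat.card (E ⊓ 𝐂(L) : Subgroup G) ≤ 2 :=
    card_zp w.t2 w.t1 ▸ card_le_of_le fun e he =>
      (mem_zp w.t2).2 (w.ker_P2 he.2 (h1 e he.1) (P2.of_sq (h2 e he.1)))
  have := F.ea16 (A := w.cov.im E)
    fun _ h => let ⟨e, he, hn, h⟩ := w.cov.mem_im.1 h; h ▸ w.cov.sq hn (h2 e he)
  nlinarith

theorem W0.perf_le (w : W0 F t L O α) {D : Subgroup G} (h1 : ∀ e ∈ D, e * t = t * e) (hp : D ≤ ⁅D, D⁆) :
    D ≤ L ⊔ O := by
  have hJ : D ≤ w.cov.pre F.J := hp.trans (commutator_le.2 fun g hg k hk => by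
    have := map_commutatorElement w.cov.hom ⟨g, w.CN g (h1 g hg)⟩ ⟨k, w.CN k (h1 k hk)⟩
    exact w.cov.mem_pre.2 ⟨commutator_le_of_le le_rfl le_rfl
      (commutator_mem_commutator (w.CN g (h1 g hg)) (w.CN k (h1 k hk))),
      (show α ⁅g, k⁆ = _ from this) ▸ F.comm_mem _ _⟩)
  have dec : ∀ g ∈ D, ∃ x ∈ L ⊔ O, ∃ v ∈ 𝐂(centralizer ({t} : Set G)), x * t = t * x ∧ g = x * v :=
    fun g hg => by
      obtain ⟨l, hl, e⟩ := w.cov.onto _ (w.cov.mem_pre.1 (hJ hg)).2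
      obtain ⟨o, ho, e⟩ := w.ovr (h1 g hg) hl e
      have c : l * o * t = t * (l * o) := (Commute.mul_left (w.Lt hl) (w.Ot o ho) :)
      rcases e with e | e
      · exact ⟨_, mul_mem_sup hl ho, 1, one_mem _, c, by rw [e, mul_one]⟩
      · exact ⟨_, mul_mem_sup hl ho, t, fun y hy => mem_centralizer_singleton_iff.1 hy, c,
          by rw [e, mul_assoc, ← w.Ot o ho, mul_assoc]⟩
  refine hp.trans (commutator_le.2 fun g hg k hk => ?_)
  obtain ⟨x, hx, v, hv, c, rfl⟩ := dec g hg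
  obtain ⟨y, hy, v', hv', -, rfl⟩ := dec k hk
  rw [comm_cen (mem_centralizer_singleton_iff.2 c) (mem_centralizer_singleton_iff.2 (h1 _ hk)) hv hv',
    commutatorElement_def]
  exact mul_mem (mul_mem (mul_mem hx hy) (inv_mem hx)) (inv_mem hy)

variable [Finite G] [Finite X]

theorem Cov.e16 (c : Cov F.J A β) {y : G} (hy : y ∈ 𝐍(A)) (y2 : y * y = 1) (hJ : β y ∈ F.J) :
    ∃ E ≤ A, (∀ e ∈ E, e * e = 1) ∧ (∀ e ∈ E, e * y = y * e) ∧ Nat.card E = 16 := by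
  obtain ⟨j, hj, h⟩ : ∃ j ∈ F.J, β y ∈ F.U ^ᶜ j := by
    by_cases h : β y = 1
    · exact ⟨1, one_mem _, by rw [h]; exact one_mem _⟩
    · obtain ⟨j, hj, e⟩ := F.inv hJ (c.sq hy y2) h
      exact ⟨j, hj, e ▸ cj_mem j F.zU⟩
  have s : ∀ v ∈ F.U ^ᶜ j, v * v = 1 := fun _ ⟨v, hv, e⟩ => e ▸ cjsq (F.U2 v hv) j
  obtain ⟨E, h1, h2⟩ := c.exists_lift (cj_le_of_mem F.UJ hj) (isP_of_P2 fun v hv => P2.of_sq (s v hv))
  refine ⟨E, fun e he => ((h1 e).1 he).1, fun e he => ?_, fun e he => ?_, by rw [h2, card_cj, F.cU]⟩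
  · obtain ⟨e1, e2, e3⟩ := (h1 e).1 he
    rw [← pow_two]; exact c.pow_eq_one e1 e2 (by rw [pow_two, s _ e3])
  · obtain ⟨e1, e2, e3⟩ := (h1 e).1 he
    exact (c.comm_lift hy e1 e2 (comm_of_sq s h e3)).symm

theorem Cov.e4 (c : Cov F.J A β) {y : G} (hy : y ∈ 𝐍(A)) (y2 : y * y = 1) (hJ : β y ∉ F.J) :
    ∃ E ≤ A, (∀ e ∈ E, e * e = 1) ∧ (∀ e ∈ E, e * y = y * e) ∧ Nat.card E = 4 ∧
      ∃ x ∈ E, ∃ b ∈ E, ∃ e ∈ A, x ≠ 1 ∧ b ≠ 1 ∧ b ≠ x ∧ e * y = y * e ∧ e * x = x * e ∧ e * b = x * (b * e) := by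
  obtain ⟨b, hb, e, he, b2, e2, by', ey, h2, h4, -⟩ := F.out _ hJ (c.sq hy y2)
  obtain ⟨b, hb', rfl, b2'⟩ := c.lifti hb b2
  obtain ⟨e, he', rfl, e2'⟩ := c.lifti he e2
  replace hb := hb'
  replace he := he'
  replace b2 := b2'
  replace e2 := e2'
  replace by' := c.comm_lift hy hb (P2.of_sq b2) by'.symm
  replace ey := c.comm_lift hy he (P2.of_sq e2) ey.symm
  rw [← c.mul' hb he] at h2 h4
  have xA := pow_mem (mul_mem hb he) 2
  have x1 : (b * e) ^ 2 ≠ 1 := fun h => h2 (by rw [← c.pow (le_normalizer (mul_mem hb he)), h, c.one])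
  have i1 := H9.conj_pow_of_inverts (H9.left_inverts b2 e2) 4
  have x2 : (b * e) ^ 2 * (b * e) ^ 2 = 1 := by
    have h := c.pow (le_normalizer (mul_mem hb he)) 4
    rw [h4] at h
    have hc := (c.ker _ (le_normalizer (pow_mem (mul_mem hb he) 4))).1 h
    rw [hc b hb, mul_inv_cancel_right] at i1
    rw [← pow_add]
    exact (P2.of_sq (eq_inv_iff_mul_eq_one.1 i1)).eq_one (c.odd _ (pow_mem (mul_mem hb he) 4) h)
  have xb := H9.commute_of_inverts_of_mul_self (H9.conj_pow_of_inverts (H9.left_inverts b2 e2) 2) x2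
  have xe := H9.commute_of_inverts_of_mul_self (H9.conj_pow_of_inverts (H9.right_inverts b2 e2) 2) x2
  have eb : e * b = (b * e) ^ 2 * (b * e) := by
    rw [← inv_eq_of_mul_eq_one_left x2, pow_two, mul_inv_rev, mul_assoc, inv_mul_cancel, mul_one, mul_inv_rev,
      inv_eq_of_mul_eq_one_left b2, inv_eq_of_mul_eq_one_left e2]
  have b1 : b ≠ 1 := fun h => x1 (by rw [h, one_mul, pow_two, e2])
  have bx : b ≠ (b * e) ^ 2 := fun h => x1 (by
    rw [pow_two, mul_assoc, ← mul_assoc e, show e * b = b * e from h ▸ xe.symm.eq, mul_assoc, e2, mul_one, b2])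
  have xy : Commute ((b * e) ^ 2) y := (Commute.mul_left by'.symm ey.symm).pow_left 2
  generalize (b * e) ^ 2 = x at *
  have cm : ∀ p ∈ zpowers x, ∀ q ∈ zpowers b, p * q = q * p := by
    rintro _ ⟨i, rfl⟩ _ ⟨j, rfl⟩; exact xb.zpow_zpow i j
  have mem : ∀ g ∈ zpowers x ⊔ zpowers b, g = 1 ∨ g = x ∨ g = b ∨ g = x * b := fun g hg => by
    obtain ⟨p, hp, q, hq, rfl⟩ := (mem_sup_comm cm).1 hg
    rcases (mem_zp x2).1 hp with rfl | rfl <;> rcases (mem_zp b2).1 hq with rfl | rfl <;> simp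
  refine ⟨zpowers x ⊔ zpowers b, sup_le (zpowers_le.2 xA) (zpowers_le.2 hb), fun g hg => ?_, fun g hg => ?_, ?_,
    x, mem_sup_left (mem_zpowers x), b, mem_sup_right (mem_zpowers b), e, he, x1, b1, bx, ey.symm,
    xe.symm, eb⟩
  · rcases mem g hg with rfl | rfl | rfl | rfl
    exacts [mul_one 1, x2, b2, by rw [mul_assoc, ← mul_assoc b, ← xb.eq, mul_assoc, b2, mul_one, x2]]
  · rcases mem g hg with rfl | rfl | rfl | rfl
    exacts [by simp, xy, by'.symm, (xy.mul_left by'.symm :)]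
  · rw [card_sup_comm cm fun p hp hq => ((mem_zp x2).1 hp).elim id fun e => ((mem_zp b2).1 hq).elim id
      fun e' => absurd (e'.symm.trans e) bx, card_zp x2 x1, card_zp b2 b1]

theorem W0.not_norm (w : W0 F t L O α) {A B : Subgroup G} {β γ : G → X} (cA : Cov F.J A β)
    (cB : Cov F.J B γ) (c : ∀ g ∈ A, ∀ k ∈ B, g * k = k * g) (tA : t ∈ 𝐍(A)) (tB : t ∈ 𝐍(B)) : False := by
  have prod : ∀ {E E' : Subgroup G}, E ≤ A → E' ≤ B → (∀ e ∈ E, e * e = 1) → (∀ e ∈ E', e * e = 1) →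
      (∀ e ∈ E, e * t = t * e) → (∀ e ∈ E', e * t = t * e) → (∀ e ∈ E ⊔ E', e * e = 1) ∧
      (∀ e ∈ E ⊔ E', e * t = t * e) ∧ Nat.card (E ⊔ E' : Subgroup G) = Nat.card E * Nat.card E' :=
    fun {E E'} h1 h2 s1 s2 c1 c2 => by
      have cm : ∀ p ∈ E, ∀ q ∈ E', p * q = q * p := fun p hp q hq => c p (h1 hp) q (h2 hq)
      refine ⟨fun e he => ?_, fun e he => ?_, card_sup_comm cm fun p hp hq =>
        (P2.of_sq (s1 p hp)).eq_one (cA.odd' (h1 hp) fun g hg => c g hg p (h2 hq))⟩ <;>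
      obtain ⟨p, hp, q, hq, rfl⟩ := (mem_sup_comm cm).1 he
      · rw [mul_assoc, ← mul_assoc q, ← cm p hp q hq, mul_assoc, s2 q hq, mul_one, s1 p hp]
      · exact (Commute.mul_left (c1 p hp) (c2 q hq) :)
  by_cases h1 : β t ∈ F.J <;> by_cases h2 : γ t ∈ F.J
  · obtain ⟨E, e1, e2, e3, e4⟩ := cA.e16 tA w.t2 h1
    obtain ⟨E', f1, f2, f3, f4⟩ := cB.e16 tB w.t2 h2
    obtain ⟨p1, p2, p3⟩ := prod e1 f1 e2 f2 e3 f3
    have := w.rank p2 p1
    rw [p3, e4, f4] at this; omega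
  · obtain ⟨E, e1, e2, e3, e4⟩ := cA.e16 tA w.t2 h1
    obtain ⟨E', f1, f2, f3, f4, -⟩ := cB.e4 tB w.t2 h2
    obtain ⟨p1, p2, p3⟩ := prod e1 f1 e2 f2 e3 f3
    have := w.rank p2 p1
    rw [p3, e4, f4] at this; omega
  · obtain ⟨E, e1, e2, e3, e4, -⟩ := cA.e4 tA w.t2 h1
    obtain ⟨E', f1, f2, f3, f4⟩ := cB.e16 tB w.t2 h2
    obtain ⟨p1, p2, p3⟩ := prod e1 f1 e2 f2 e3 f3
    have := w.rank p2 p1
    rw [p3, e4, f4] at this; omega
  obtain ⟨E, e1, e2, e3, e4, x, hx, b, hb, e, he, x1, -, -, et, ex, eb⟩ := cA.e4 tA w.t2 h1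
  obtain ⟨E', f1, f2, f3, f4, x', hx', b', hb', -, -, x1', b1', bx', -⟩ := cB.e4 tB w.t2 h2
  obtain ⟨p1, p2, p3⟩ := prod e1 f1 e2 f2 e3 f3
  have n : ∀ {g}, g ∈ E ⊔ E' → g ∈ 𝐍(L) := fun h => w.CN _ (p2 _ h)
  have ker : ∀ g ∈ E ⊔ E', α g = 1 → g = 1 := fun g hg h =>
    (w.ker_P2 ((w.cov.ker g (n hg)).1 h) (p2 g hg) (P2.of_sq (p1 g hg))).elim id fun e => by
      obtain ⟨p, hp, q, hq, rfl⟩ := (mem_sup_comm fun p hp q hq => c p (e1 hp) q (f1 hq)).1 hg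
      rw [← e, cA.mul_cen (le_normalizer (e1 hp)) fun g hg => c g hg q (f1 hq)] at h1
      exact absurd (cA.mem p (e1 hp)) h1
  have hc := w.cov.card_im (E := E ⊔ E') fun g hg => n hg
  rw [p3, e4, f4, (eq_bot_iff_forall _).2 fun g (hg : g ∈ (E ⊔ E') ⊓ 𝐂(L)) => ker g hg.1 (w.cov.cen hg.2),
    card_bot] at hc
  obtain ⟨y, hy⟩ : ∃ y, w.cov.im (E ⊔ E') ^ᶜ y = F.U := by
    obtain ⟨j, -, h | h⟩ := F.ea (w.cov.im (E ⊔ E'))
      (fun _ h => let ⟨e, he, hn, h⟩ := w.cov.mem_im.1 h; h ▸ w.cov.sq hn (p1 e he)) (by omega)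
    · exact ⟨j, h⟩
    · obtain ⟨y, hy⟩ := F.VU.resolve_left (F.ne_top_of h1)
      exact ⟨y * j, by rw [← cj_cj, h, hy]⟩
  have m : ∀ {g}, g ∈ E ⊔ E' → y * α g * y⁻¹ ∈ F.U := fun h =>
    hy ▸ cj_mem y (w.cov.mem_im.2 ⟨_, h, n h, rfl⟩)
  have ne : ∀ {g k}, g ∈ E ⊔ E' → k ∈ E ⊔ E' → g ≠ k → y * α g * y⁻¹ ≠ y * α k * y⁻¹ := fun hg hk h e =>
    h (inv_mul_eq_one.1 (ker _ (mul_mem (inv_mem hg) hk)
      (w.cov.cen (w.cov.inv_mul_mem (n hg) (n hk) (by simpa using e)))))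
  have n1 : ∀ {g}, g ∈ E ⊔ E' → g ≠ 1 → y * α g * y⁻¹ ≠ 1 := fun hg h => cjne (fun e => h (ker _ hg e)) y
  have dis : ∀ {g}, g ∈ E' → g ≠ x := fun {g} hg h => x1 ((P2.of_sq (e2 x hx)).eq_one
    (cA.odd' (e1 hx) fun k hk => c k hk x (h ▸ f1 hg)))
  have mx := mem_sup_left (T := E') hx
  have mx' := mem_sup_right (S := E) hx'
  have mb' := mem_sup_right (S := E) hb'
  obtain ⟨k, -, kU, k1, k2, k3⟩ := F.trt (m mx) (m mx') (m mb') (n1 mx x1) (n1 mx' x1') (ne mx' mx (dis hx'))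
    (n1 mb' b1') (ne mb' mx (dis hb')) (ne mb' mx' bx') (by
      rw [conj_mul, ← w.cov.mul _ (n mx) _ (n mx')]
      exact ne mb' (mul_mem mx mx') fun h => dis (mul_mem hb' (inv_mem hx')) (by rw [h]; simp))
  have eN := w.CN e et
  have cm : ∀ {g v}, g ∈ E ⊔ E' → e * g = g * e → k * v * k⁻¹ = y * α g * y⁻¹ →
      k⁻¹ * (y * α e * y⁻¹) * k * v = v * (k⁻¹ * (y * α e * y⁻¹) * k) := fun {g v} hg h h' => by
    have := cj_comm (j := y) (w.cov.comm eN (n hg) h)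
    rw [← h'] at this
    calc _ = k⁻¹ * (y * α e * y⁻¹ * (k * v * k⁻¹)) * k := by group
      _ = _ := by rw [this]; group
  have hU := conj_mem_of_mem_normalizer kU (F.cpqr _ (cm mx ex k1) (cm mx' (c e he x' (f1 hx')) k2)
    (cm mb' (c e he b' (f1 hb')) k3))
  have mb := mem_sup_left (T := E') hb
  have := F.Uc hU (m mb)
  rw [show k * (k⁻¹ * (y * α e * y⁻¹) * k) * k⁻¹ = y * α e * y⁻¹ by group, conj_mul, conj_mul,
    mul_left_inj, mul_right_inj, ← w.cov.mul _ eN _ (n mb), eb, w.cov.mul _ (n mx) _ (mul_mem (n mb) eN),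
    w.cov.mul _ (n mb) _ eN, mul_eq_right] at this
  exact x1 (ker x mx this)

namespace Pr
variable (p : Pr F t L O α a u A β)
include p

theorem LN : L ≤ 𝐍(A) := fun l hl => let ⟨_, hg, e⟩ := p.onL l hl; e ▸ pi_norm p.comm hg

theorem uniq {A' : Subgroup G} {β' : G → X} (c' : Cov F.J A' β')
    (cm : ∀ g ∈ A', ∀ k ∈ A', g * (t * k * t⁻¹) = (t * k * t⁻¹) * g)
    (gen : A' ≤ closure {g | g ∈ A' ∧ g * g = 1}) : A' ≤ A ∨ A' ≤ A ^ᶜ t := by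
  have ct : ∀ g : A', piH t cm g * t = t * piH t cm g := fun g => by
    rw [piH_apply]; conv_rhs => rw [cm g g.2 g g.2]
    simp only [mul_assoc, p.ti, can p.t2, p.t2, mul_one]
  have LO : (piH t cm).range ≤ L ⊔ O := p.perf_le (fun _ ⟨g, e⟩ => e ▸ ct g) (by
    rintro _ ⟨g, rfl⟩
    have : ⁅A', A'⁆ ≤ (⁅(piH t cm).range, (piH t cm).range⁆.comap (piH t cm)).map A'.subtype :=
      commutator_le.2 fun g hg k hk => ⟨⁅(⟨g, hg⟩ : A'), ⟨k, hk⟩⁆, by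
        rw [SetLike.mem_coe, mem_comap, map_commutatorElement]
        exact commutator_mem_commutator ⟨_, rfl⟩ ⟨_, rfl⟩, rfl⟩
    obtain ⟨k, hk, e⟩ := this (c'.perf g.2)
    exact Subtype.ext e ▸ hk)
  have pL : ∀ g : A', piH t cm g ∈ L := fun g => by
    have : A' ≤ (L.comap (piH t cm)).map A'.subtype := gen.trans ((closure_le _).2 fun i hi => by
      refine ⟨⟨i, hi.1⟩, ?_, rfl⟩
      have h2 : P2 (piH t cm ⟨i, hi.1⟩) := P2.of_sq (by
        rw [← map_mul, show (⟨i, hi.1⟩ * ⟨i, hi.1⟩ : A') = 1 from Subtype.ext hi.2, map_one])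
      have h3 := LO ⟨⟨i, hi.1⟩, rfl⟩
      obtain ⟨l, hl, o, ho, e⟩ := (mem_sup_comm fun a ha o ho => p.LO ha ho).1 h3
      obtain ⟨x, hx, ex, x2⟩ := p.cov.lift2 (p.cov.mem l hl) (by
        rw [← p.cov.mul_cen (le_normalizer hl) (p.OL ho), ← e]; exact p.cov.p2 (p.CN _ (ct _)) h2)
      rcases p.over2 (ct _) h2 hx x2 (by rw [ex, e, p.cov.mul_cen (le_normalizer hl) (p.OL ho)]) with e | e
      · exact show _ ∈ L from e ▸ hx
      · exact absurd ((mul_mem_cancel_left (mem_sup_left hx)).1 (e ▸ h3)) p.t_not)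
    obtain ⟨k, hk, e⟩ := this g.2
    exact Subtype.ext e ▸ hk
  let f : A' →* X := p.cov.hom.comp ((piH t cm).codRestrict _ fun g => le_normalizer (pL g))
  have kf : ∀ g : A', f g = 1 → β' g = 1 := fun g h => by_contra fun h1 => by
    have := c'.le_of_normal F.simple (map_subtype_le f.ker)
      (le_normalizer_iff.2 fun k hk _ ⟨m, hm, e⟩ => ⟨_, f.normal_ker.conj_mem m hm ⟨k, hk⟩, e ▸ rfl⟩)
      ⟨g, h, rfl⟩ h1
    obtain ⟨i, hi, ei, i2⟩ := c'.lifti F.zJ F.z2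
    obtain ⟨k, hk, rfl⟩ := this hi
    have h1 : piH t cm k = 1 := p.cov.eq_one (pL k)
      (P2.of_sq (by rw [← map_mul, show k * k = 1 from Subtype.ext i2, map_one])) hk
    refine F.z1 (ei ▸ c'.cen fun m hm => ?_)
    rw [show A'.subtype k = (t * k * t⁻¹)⁻¹ from eq_inv_of_mul_eq_one_left h1]
    exact (Commute.inv_right (cm m hm k k.2) :)
  have on : f.range = F.J := eq_of_le_of_card_ge (fun _ ⟨g, e⟩ => e ▸ p.cov.mem _ (pL g)) (by
    have h1 := c'.card_im (E := A') le_normalizer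
    have h2 : c'.im A' = F.J := le_antisymm (fun _ h => let ⟨g, hg, _, e⟩ := c'.mem_im.1 h; e ▸ c'.mem g hg)
      fun j hj => let ⟨g, hg, e⟩ := c'.onto j hj; c'.mem_im.2 ⟨g, hg, le_normalizer hg, e⟩
    have h3 : Nat.card f.ker ≤ Nat.card (A' ⊓ 𝐂(A') : Subgroup G) := by
      rw [← card_map_of_injective A'.subtype_injective]
      exact card_le_of_le fun _ ⟨g, hg, e⟩ => e ▸ ⟨g.2, (c'.ker _ (le_normalizer g.2)).1 (kf g hg)⟩
    rw [h2, ← f.ker.card_mul_index, index_ker, mul_comm] at h1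
    exact Nat.le_of_mul_le_mul_right (h1 ▸ Nat.mul_le_mul_left _ h3) Nat.card_pos)
  have onL : ∀ l ∈ L, ∃ g : A', piH t cm g = l := fun l hl =>
    p.cov.gen (D := (piH t cm).range) (fun _ ⟨g, e⟩ => e ▸ pL g)
      (fun j hj => let ⟨g, e⟩ := (on ▸ hj : j ∈ f.range); ⟨_, ⟨g, rfl⟩, e⟩) hl
  have inj : ∀ g k : A', P2 (g : G) → P2 (k : G) → piH t cm g = piH t cm k → (g : G) = k := fun g k g2 k2 e =>
    c'.uniq g.2 k.2 g2 k2 (by
      have := kf (g⁻¹ * k) (by rw [map_mul, map_inv, inv_mul_eq_one]; exact congrArg α e)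
      rwa [coe_mul, coe_inv, c'.mul' (inv_mem g.2) k.2, c'.inv (le_normalizer g.2), inv_mul_eq_one] at this)
  obtain ⟨i, i2, ei⟩ : ∃ i : A', P2 (i : G) ∧ piH t cm i = a := by
    obtain ⟨g, e⟩ := onL a p.aL
    obtain ⟨m, hm, m2⟩ := exists_odd_P2 (g : G)
    exact ⟨g ^ m, m2, by rw [map_pow, e, pow_odd_of_sq p.a2 hm]⟩
  have isq : (i : G) * i = 1 := inj (i * i) 1 (i2.mul i2 rfl) ⟨0, by simp⟩ (by rw [map_mul, ei, p.a2, map_one])
  have cj : ∀ {l} (j : A'), l ∈ L → P2 (j : G) → l * a * l⁻¹ = piH t cm j → l * i * l⁻¹ = j :=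
    fun j hl j2 e => by
      obtain ⟨k, rfl⟩ := onL _ hl
      rw [piH_apply, pi_cj cm k.2 i.2]
      exact inj (k * i * k⁻¹) j (i2.conj k) j2 (by rw [map_mul, map_mul, map_inv, ei, e])
  have la : ∀ l ∈ L, α l ∈ F.Q → l * a = a * l := fun l hl h =>
    p.cov.comm_lift (le_normalizer hl) p.aL (P2.of_sq p.a2) (p.az ▸ F.cT _ (F.QT h))
  have hi := p.uq p.aL p.a2 p.az p.u2 p.ut p.uO (fun l hl _ h => p.uC l hl (la l hl h)) isq (by
      rw [← p.Lt p.aL, ← ei, piH_apply, inv_eq_of_mul_eq_one_left isq]; group)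
    fun l hl _ h => (mul_inv_eq_iff_eq_mul.1 (cj i hl i2 (by rw [la l hl h, ei, mul_inv_cancel_right]))).symm
  have all : ∀ j ∈ A', j * j = 1 → j = 1 ∨ ∃ l ∈ L, l * i * l⁻¹ = j := fun j hj j2 => by
    refine or_iff_not_imp_left.2 fun j1 => ?_
    obtain ⟨l, hl, e⟩ := p.ex (b := piH t cm ⟨j, hj⟩) ⟨pL _, by
      rw [← map_mul, show (⟨j, hj⟩ * ⟨j, hj⟩ : A') = 1 from Subtype.ext j2, map_one],
      fun e => j1 (inj ⟨j, hj⟩ 1 (P2.of_sq j2) ⟨0, by simp⟩ (e.trans (map_one _).symm))⟩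
    exact ⟨l, hl, cj ⟨j, hj⟩ hl (P2.of_sq j2) e⟩
  refine hi.imp (fun e => gen.trans ((closure_le _).2 fun j hj => ?_))
    fun e => gen.trans ((closure_le _).2 fun j hj => ?_) <;>
  rcases all j hj.1 hj.2 with rfl | ⟨l, hl, rfl⟩
  · exact one_mem _
  · exact e ▸ conj_mem_of_mem_normalizer (p.LN hl) p.uA
  · exact one_mem _
  · have := p.tuf p.ia
    rw [p.uf_a] at this
    rw [e, ← this, show l * (t * u * t⁻¹) * l⁻¹ = l * t * u * (l * t)⁻¹ by group, p.Lt hl,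
      show t * l * u * (t * l)⁻¹ = t * (l * u * l⁻¹) * t⁻¹ by group]
    exact cj_mem t (conj_mem_of_mem_normalizer (p.LN hl) p.uA)

theorem en {G0 : Subgroup G} (n0 : G0.Normal) (s0 : IsSimpleGroup G0) (hL : L ≤ G0) : En F G0 t A β := by
  have cB : ∀ g ∈ A, ∀ k ∈ A ^ᶜ t, g * k = k * g := fun g hg _ ⟨k, hk, e⟩ => e ▸ p.comm g hg k hk
  have cj : ∀ x, ∀ g ∈ A ^ᶜ x, ∀ k ∈ (A ^ᶜ t) ^ᶜ x, g * k = k * g := by
    rintro x _ ⟨g, hg, rfl⟩ _ ⟨k, hk, rfl⟩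
    exact cj_comm' (cB g hg k hk)
  have tt : (A ^ᶜ t) ^ᶜ t = A := by rw [cj_cj, p.t2, cj_one]
  refine ⟨p.covA, n0, s0, p.covA.perf.trans (commutator_le.2 fun g hg k hk => ?_), p.t2, p.comm,
    fun k hk c k2 => ?_, fun g hg => ?_, fun g hg => ?_⟩
  · rw [commutatorElement_def, ← pi_cj p.comm hg hk, mul_assoc, mul_assoc, ← mul_assoc k]
    exact mul_mem (hL (p.piL g hg)) (n0.conj_mem _ (inv_mem (hL (p.piL g hg))) k)
  · refine (p.ker_P2 (fun l hl => ?_) c (P2.of_sq k2)).elim id fun e => ?_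
    · obtain ⟨g, hg, rfl⟩ := p.onL l hl
      refine (Commute.mul_left (hk g hg) ?_ :)
      have := cj_comm' (j := t) (hk g hg)
      rwa [← c, mul_inv_cancel_right] at this
    · have := p.ut
      rw [← e, hk u p.uA, mul_inv_cancel_right, eq_comm, mul_eq_left] at this
      exact absurd this p.ia.ne
  · refine p.not_norm (p.covA.cj g⁻¹) ((p.covA.cj t).cj g⁻¹) (cj _) ?_ ?_ <;>
    rw [← cj_normalizer, mem_cj, inv_inv]
    exacts [hg.1, hg.2]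
  · have e : (A ^ᶜ g⁻¹) ^ᶜ t = (A ^ᶜ t) ^ᶜ g⁻¹ := by
      conv_rhs => rw [← cj_eq_of_mem_normalizer hg.2]
      rw [cj_cj, cj_cj, cj_cj]; congr 3
      simp only [mul_assoc, p.t2, mul_one, inv_mul_cancel_left]
    have := p.uniq (p.covA.cj g⁻¹) (fun x hx k hk => cj _ x hx _ (e ▸ cj_mem t hk)) (by
      rw [cj_le_iff]
      exact p.genA.trans ((closure_le _).2 fun i hi => cj_mem_iff.1 (by
        rw [cj_cj, mul_inv_cancel, cj_one]; exact subset_closure ⟨cj_mem _ hi.1, cjsq hi.2 _⟩)))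
    refine this.imp (fun h => ?_) fun h => ?_
    · have h1 := cj_eq_of_cj_le h
      exact inv_mem_iff.1 ⟨cj_eq_self_iff.1 h1, cj_eq_self_iff.1 (by rw [← e, h1])⟩
    · have h1 : A ^ᶜ g⁻¹ = A ^ᶜ t := eq_of_le_of_card_ge h (by rw [card_cj, card_cj])
      refine inv_mem_iff.1 ?_
      rw [mul_inv_rev, p.ti]
      exact ⟨cj_eq_self_iff.1 (by rw [← cj_cj, h1, tt]), cj_eq_self_iff.1 (by rw [← cj_cj, ← e, h1, tt])⟩

end Pr

theorem W.exists_en (w : W F t L O α) {G0 : Subgroup G} (n0 : G0.Normal) (s0 : IsSimpleGroup G0)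
    (hL : L ≤ G0) : ∃ A β, En F G0 t A β :=
  let ⟨_, _, x⟩ := w.exists_dx
  let ⟨A, β, p⟩ := x.exists_pr
  ⟨A, β, p.en n0 s0 hL⟩

end H36.SW
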