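import Mathlib
import Cfsg.Agent.Lib.StdW.Mod0

/-! The checks which give `Fx`, and their meaning. -/

set_option autoImplicit false
set_option linter.unusedSectionVars false

namespace H92.SW

open Subgroup H69 H54 Function

local notation "TL" => ([1, 2, 3, 4, 5, 6, 12] : List ℕ)
local notation "SL" => ([1, 2, 3, 4, 5, 6, 12, 80] : List ℕ)
local notation "UL" => ([1, 2, 3, 4] : List ℕ)
local notation "VL" => ([14, 15, 16, 17] : List ℕ)
local notation "CL" => ([1, 2, 3, 4, 7, 8, 9, 10] : List ℕ)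
local notation "NL" => ([1, 2, 3, 4, 7, 8, 9, 11] : List ℕ)
local notation "ML" => ([1, 2, 3, 4, 5, 6, 12, 13] : List ℕ)
local notation "GL" => ([18, 19, 20, 21] : List ℕ)
local notation "JL" => (List.range' 1 79 : List ℕ)
local infixr:35 " &&& " => band
local infixr:30 " ||| " => bor
local infixr:25 " ==> " => bimp

namespace Dt

variable (D : Dt)

noncomputable def k2 : Bool :=
  D.gd D.cT TL &&& D.gd D.cS SL &&& D.gd D.cU UL &&& D.gd D.cZ [1, 2, 3] &&& D.gd D.cV VL &&&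
  Nat.beq (D.cU.size D.c.n) 16 &&& Nat.beq (D.cZ.size D.c.n) 8 &&& Nat.beq (D.cV.size D.c.n) 16 &&&
  D.syl D.cT D.J &&& D.syl D.cS D.X &&& D.idx 7 D.cH D.X &&& eqL D.cC.gens (List.map D.cl CL) &&&
  eqL D.J.gens (List.map D.cl [22, 23])

noncomputable def k3 : Bool := D.ce D.J D.cC [1] &&& D.ce D.X D.cP [1, 2] &&& D.ce D.X D.cH [27, 28]

noncomputable def aU (cl : ℕ → ℕ) : Bool :=
  D.ew cl [0, 0] [] &&& (D.cm cl [0] [8] ==> D.cm cl [0] [9] ==> D.ew cl [0] [] ||| D.ew cl [0] [1]) &&&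
  (D.ew cl [0] [] ||| (D.ex 3 NL fun u => D.cj cl u [1] [0]) &&& (D.ew cl [0] [1] |||
    (D.ex 3 NL fun u => D.cj cl u [2] [0] &&& D.cm cl u [1]) &&&
    (D.ew cl [0] [2] ||| D.ew cl [0] [1, 2] |||
      D.ex 3 NL fun u => D.cj cl u [3] [0] &&& D.cm cl u [1] &&& D.cm cl u [2])))

noncomputable def aT (cl : ℕ → ℕ) : Bool :=
  (D.ew cl (List.replicate 4 0) [] ||| D.ew cl (List.replicate 4 0) [1]) &&&
  (D.ew cl [0, 0] [] ==> D.ew cl [0] [] ||| D.ew cl [0] [1] |||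
    D.ex 4 CL fun u => D.cj cl u [0] [2] ||| D.cj cl u [0] [5])

noncomputable def aS (cl : ℕ → ℕ) : Bool :=
  D.ew cl [0, 0] [] ==> bnot (allLt (fun i => bnot (D.ew cl [0] [i + 81])) D.m)

noncomputable def aV (cl : ℕ → ℕ) : Bool :=
  D.ew cl [0] [] ||| D.ex 7 ML fun u => bnot (D.cm cl u [0])

noncomputable def aP (cl : ℕ → ℕ) : Bool :=
  (D.cm cl [0] [3] ==> (D.ex 0 UL fun u => D.ew cl [0] u) &&&
    (D.cm cl [0] [5] ==> D.cm cl [0] [6] ==> D.ew cl [0] [] ||| D.ew cl [0] [1])) &&&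
  allL (fun a => D.ew cl [0] [] ||| D.ew cl [0] [1] ||| D.ew cl [0] [a] ||| D.ew cl [0] [1, a] |||
    D.ex 5 CL fun u => bnot (D.cm cl [0] u) &&& D.cm cl u [a]) [2, 5]

noncomputable def aH (cl : ℕ → ℕ) : Bool :=
  D.ew cl [0] [] ||| (D.ew cl (List.replicate 4 0) [] ==> D.ew cl [0] [29]) &&&
    (D.ew cl (List.replicate 7 0) [] ==>
      allL (fun a => anyL (fun i => D.ew cl [a] (List.replicate i 0)) [1, 2, 3, 4, 5, 6]) [27, 28])

noncomputable def k4 : Bool :=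
  D.all D.cU D.aU &&& D.all D.cT D.aT &&& D.all D.cS D.aS &&& D.all D.cV D.aV &&& D.all D.cH D.aH

noncomputable def c2 (a b : ℕ) : ℕ :=
  cntLt (fun e => D.cm D.cl [a + 81] [e + 81] &&& D.cm D.cl [b + 81] [e + 81]) D.m

noncomputable def ea (a : ℕ) : Bool :=
  (D.ex 0 UL fun u => D.ew D.cl [a + 81] u) ||| (D.ex 1 VL fun u => D.ew D.cl [a + 81] u) |||
    Nat.ble (D.c2 a a) 15 |||
    Nat.ble (cntLt (fun b => D.cm D.cl [a + 81] [b + 81] &&& Nat.ble 16 (D.c2 a b)) D.m) 15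

noncomputable def k5 : Bool :=
  allL (fun l => D.ew D.cl [l, l] []) (SL ++ 9 :: GL) &&&
  allL (fun l => D.cm D.cl [l] [1]) (TL ++ [24, 25, 26]) &&&
  allL (fun l => D.ew D.cl (List.replicate 7 l) []) [7, 24, 25, 26] &&&
  allL (fun l => bnot (D.ew D.cl [l] [])) (1 :: 2 :: 3 :: 7 :: GL) &&&
  allL (fun a => D.cm D.cl [a, 1, a] [1]) GL &&&
  allL (fun n => D.nm 0 n UL UL) NL &&& allL (fun n => D.nm 1 n VL VL) ML &&&
  D.nm 2 10 [2, 3, 5, 6] [2, 3, 5, 6] &&&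
  allL (fun l => D.ex 7 [1, 2, 3, 4, 7, 8, 9] fun u => D.ew D.cl [l] u) [5, 6] &&&
  allL (fun l => D.ex 7 [24, 25, 26] fun u => D.ew D.cl [l] u) CL &&&
  allL (fun l => D.ex 7 GL fun u => D.ew D.cl [l] u) [22, 23] &&&
  (D.ex 7 TL fun u => D.ew D.cl (u ++ u ++ u ++ u) [1]) &&&
  allL (fun v => D.ex 6 JL fun u => D.cj D.cl u [3] [4] &&& D.cj D.cl u [5] v) [[5], [6], [5, 6]] &&&
  (D.ex 6 JL fun u => D.cj D.cl u [1] [5] &&& D.cj D.cl u [5] [1, 5]) &&&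
  allL (fun a => allL (fun b => D.cm D.cl [a] [b] ||| D.ex 6 JL fun u =>
    (D.cj D.cl u [3] [a] &&& D.cj D.cl u [5] [b]) ||| (D.cj D.cl u [3] [b] &&& D.cj D.cl u [5] [a]))
    GL) GL &&&
  anyL (fun i => D.ew D.cl ((9 :: List.replicate i 7) ++ ((9 :: List.replicate i 7) ++
    (9 :: List.replicate i 7))) []) [1, 2, 3, 4, 5, 6]

noncomputable def k6 : Bool :=
  D.ew D.cl (List.replicate 3 8) [] &&& D.ew D.cl (List.replicate 3 10) [] &&&
  D.cj D.cl [8] [7] (List.replicate 2 7) &&& D.ew D.cl [8, 9, 8] [9] &&& D.cm D.cl [5] [6] &&&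
  D.cm D.cl [2] [5] &&& D.cm D.cl [3] [6] &&& D.ew D.cl [5, 3, 5] [3, 1] &&&
  D.ew D.cl [6, 2, 6] [2, 1] &&& D.ew D.cl [5, 4, 5] [4, 2] &&& D.ew D.cl [6, 4, 6] [4, 3] &&&
  bnot (D.ew D.cl [2] [1]) &&& bnot (D.ew D.cl [3] [1]) &&& bnot (D.ew D.cl [3] [2]) &&&
  bnot (D.ew D.cl [3] [1, 2])

noncomputable def ko : Bool :=
  notMemb D.c D.J (D.cl 80) &&& D.nm 0 80 VL UL &&&
  Nat.beq (Nat.div (D.X.size D.c.n) (D.J.size D.c.n)) 2 &&&
  allLt (fun i => D.mb D.J (i + 81) ||| D.ex 6 JL fun u => D.cj D.cl u [80] [i + 81]) D.m &&&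
  D.ew D.cl [30, 30] [] &&& D.ew D.cl [31, 31] [] &&& D.cm D.cl [30] [80] &&& D.cm D.cl [31] [80] &&&
  bnot (D.ew D.cl [30, 31, 30, 31] []) &&& D.ew D.cl [30, 31, 30, 31, 30, 31, 30, 31] [] &&&
  D.cj D.cl [32] [80] [80, 30, 31, 30, 31]

end Dt

theorem eqns_Mod1 : True := by
  have := @Dt.k2.eq_1
  have := @Dt.k3.eq_1
  have := @Dt.k4.eq_1
  have := @Dt.k5.eq_1
  have := @Dt.k6.eq_1
  have := @Dt.ko.eq_1
  have := @Dt.aU.eq_1
  have := @Dt.aT.eq_1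
  have := @Dt.aS.eq_1
  have := @Dt.aV.eq_1
  have := @Dt.aP.eq_1
  have := @Dt.aH.eq_1
  have := @Dt.c2.eq_1
  have := @Dt.ea.eq_1
  trivial

variable {G Ω : Type} [Group G] [Finite G] [MulAction G Ω] {pt : ℕ → Ω} {D : Dt} {J : Subgroup G}
  {lt : ℕ → G}

theorem mem_cent {L : List ℕ} {g : G} {H : Subgroup G} :
    g ∈ H ⊓ centralizer {g | g ∈ L.map lt} ↔ g ∈ H ∧ ∀ l ∈ L, g * lt l = lt l * g := by
  simp only [mem_inf, mem_centralizer_iff, Set.mem_ofPred_eq, List.forall_mem_map]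
  exact and_congr_right fun _ => forall₂_congr fun _ _ => eq_comm

theorem cs_eq {L : List ℕ} {S : Set G} (h : {g | g ∈ L.map lt} = S) : cs lt L = closure S :=
  congrArg Subgroup.closure h

namespace Md

variable (m : Md D pt J lt)
include m

theorem c7 (a : Good D.c pt D.cH (⊤ ⊓ centralizer {g | g ∈ [27, 28].map lt}))
    (e1 : D.idx 7 D.cH D.X = true) (e2 : D.all D.cH D.aH = true) (g : G) (g1 : g ≠ 1) (g7 : g ^ 7 = 1)
    (x y : G) (hx : x * g = g * x) (hy : y * g = g * y) (x4 : x ^ 4 = 1) (y4 : y ^ 4 = 1)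
    (x1 : x ≠ 1) (y1 : y ≠ 1) : x = y := by
  obtain ⟨k, -, hk⟩ := exists_conj_mem_of_index (k := 1) (by norm_num) (m.idx a m.aX le_top e1)
    (mem_top g) (by rwa [pow_one])
  have pw : ∀ (u : G) (n : ℕ), (k⁻¹ * u * k) ^ n = 1 ↔ u ^ n = 1 := fun u n => by
    rw [← inv_inv k, inv_inv k⁻¹, conj_pow, conj_eq_one_iff]
  have P : ∀ u ∈ ⊤ ⊓ centralizer {g | g ∈ [27, 28].map lt}, u = 1 ∨ (u ^ 4 = 1 → u = lt 29) ∧
      (u ^ 7 = 1 → ∀ l ∈ [27, 28], ∃ i : ℕ, lt l = u ^ i) := fun u hu => by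
    obtain ⟨cl, e, h⟩ := m.all a e2 hu
    simp only [Dt.aH, band_eq_true, bor_eq_true, bimp_eq_true, allL_iff, anyL_iff, h.ew, lw_rep,
      lw_one, lw_nil, update_self, ne_eq, OfNat.ofNat_ne_zero, not_false_eq_true, update_of_ne] at e
    refine e.imp_right (And.imp_right fun e u7 l hl => ?_)
    obtain ⟨i, -, e1⟩ := e u7 l hl
    exact ⟨i, by rwa [update_of_ne (by rintro rfl; simp at hl)] at e1⟩
  have Q : ∀ u : G, u * g = g * u → u ^ 4 = 1 → u ≠ 1 → k⁻¹ * u * k = lt 29 := fun u h1 h2 h3 => by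
    refine ((P _ (mem_cent.2 ⟨trivial, fun l hl => ?_⟩)).resolve_left fun e =>
      h3 (by simpa using (pw u 1).1 (by simpa using e))).1 ((pw _ _).2 h2)
    obtain ⟨i, e⟩ := ((P _ hk).resolve_left fun e =>
      g1 (by simpa using (pw g 1).1 (by simpa using e))).2 ((pw _ _).2 g7) l hl
    rw [e]
    refine Commute.pow_right (?_ : _ = _) i
    calc k⁻¹ * u * k * (k⁻¹ * g * k) = k⁻¹ * (u * g) * k := by group
      _ = _ := by rw [h1]; group
  simpa using (Q x hx x4 x1).trans (Q y hy y4 y1).symm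

theorem cj_le (hS : IsSylowIn 2 (cs lt SL) ⊤) (ho : J = ⊤ ∨ lt 80 ∉ J ∧ J.index = 2)
    {R : Subgroup G} (hR : IsPGroup 2 R) : ∃ j ∈ J, R ^ᶜ j ≤ cs lt SL := by
  obtain ⟨g, -, h⟩ := hS.exists_cj_le hR le_top
  by_cases hg : g ∈ J
  · exact ⟨g, hg, h⟩
  obtain ⟨h1, h2⟩ := ho.resolve_left fun e => hg (e ▸ mem_top g)
  exact ⟨lt 80 * g, (mul_mem_iff_of_index_two h2).2 (iff_of_false h1 hg),
    cj_cj R g _ ▸ cj_le_of_mem h (mem_cs lt (by decide))⟩

theorem inv (a : Good D.c pt D.cS (cs lt SL)) (e : D.all D.cS D.aS = true) {g : G}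
    (hg : g ∈ cs lt SL) (g2 : g * g = 1) : ∃ i < D.m, g = lt (i + 81) := by
  obtain ⟨cl, e, h⟩ := m.all a e hg
  simpa [Dt.aS, allLt_iff, h.ew, lw_cons, lw_nil, g2] using e

theorem ea (a : Good D.c pt D.cS (cs lt SL)) (e : D.all D.cS D.aS = true)
    (e1 : allLt D.ea D.m = true) {A : Subgroup G} (hA : A ≤ cs lt SL) (h2 : ∀ a ∈ A, a * a = 1)
    (hc : 16 ≤ Nat.card A) : A ≤ cs lt UL ∨ A ≤ cs lt VL := by
  have cm : ∀ a ∈ A, ∀ b ∈ A, a * b = b * a := fun a ha b hb => by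
    rw [← inv_eq_of_mul_eq_one_right (h2 _ (mul_mem ha hb)), mul_inv_rev,
      inv_eq_of_mul_eq_one_right (h2 a ha), inv_eq_of_mul_eq_one_right (h2 b hb)]
  have cn : ∀ f : ℕ → Bool, (∀ i, lt (i + 81) ∈ A → f i = true) → 16 ≤ cntLt f D.m := fun f hf =>
    hc.trans ((Set.ncard_le_ncard (fun g hg => by
      obtain ⟨i, hi, rfl⟩ := m.inv a e (hA hg) (h2 g hg)
      exact ⟨i, ⟨hi, hf i hg⟩, rfl⟩) (Set.toFinite _)).trans
      (ncard_image_le (pt := fun i => lt (i + 81)) f D.m))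
  have c2 : ∀ i j, lt (i + 81) ∈ A → lt (j + 81) ∈ A → 16 ≤ D.c2 i j := fun i j hi hj =>
    cn _ fun k hk => by
      simp only [band_eq_true, m.ev.cm, lw_one]
      exact ⟨cm _ hi _ hk, cm _ hj _ hk⟩
  refine SubgroupClass.subset_union.1 fun g hg => ?_
  obtain ⟨i, hi, rfl⟩ := m.inv a e (hA hg) (h2 g hg)
  have h := (allLt_iff _ _).1 e1 i hi
  simp only [Dt.ea, Dt.ex, band_eq_true, bor_eq_true, anyL_iff, m.ev.ew, lw_one, Nat.ble_eq] at h
  rcases h with ⟨u, -, h, h'⟩ | ⟨u, -, h, h'⟩ | h | h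
  · exact .inl (h ▸ mem_sub h')
  · exact .inr (h ▸ mem_sub h')
  · exact absurd ((c2 i i hg hg).trans h) (by omega)
  · refine absurd ((cn _ fun k hk => ?_).trans h) (by omega)
    simp only [band_eq_true, m.ev.cm, lw_one, Nat.ble_eq]
    exact ⟨cm _ hg _ hk, c2 i k hg hk⟩

theorem out (hJ : J.Normal) (hS : IsSylowIn 2 (cs lt SL) ⊤) (h2 : lt 80 ∉ J ∧ J.index = 2)
    (a : Good D.c pt D.cS (cs lt SL)) (e : D.all D.cS D.aS = true) (ko : D.ko = true) (x : G)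
    (hx : x ∉ J) (x2 : x * x = 1) : ∃ b ∈ J, ∃ e ∈ J, b * b = 1 ∧ e * e = 1 ∧ b * x = x * b ∧
    e * x = x * e ∧ (b * e) ^ 2 ≠ 1 ∧ (b * e) ^ 4 = 1 ∧ ∃ j ∈ J, j * x * j⁻¹ = x * (b * e) ^ 2 := by
  simp only [Dt.ko, Dt.ex, band_eq_true, bor_eq_true, bnot_eq_true, allLt_iff, anyL_iff, m.ev.ew,
    m.ev.cm, m.ev.cj, lw_cons, lw_nil, mul_one] at ko
  obtain ⟨-, -, -, o, b2, e2, b3, e3, o2, o4, oj⟩ := ko
  obtain ⟨j, hj, h⟩ := m.cj_le hS (.inr h2) (R := zpowers x) (IsPGroup.of_card (n := 1) (by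
    rw [Nat.card_zpowers, pow_one]
    exact orderOf_eq_prime (by rwa [pow_two]) fun e => hx (e ▸ one_mem J)))
  obtain ⟨i, hi, h1⟩ := m.inv a e (h (cj_mem j (mem_zpowers x))) (by rw [conj_mul, x2]; simp)
  obtain ⟨u, -, h3, h4⟩ := (o i hi).resolve_left fun e => hx (by
    have := hJ.conj_mem _ (h1 ▸ m.mb m.aJ e :) j⁻¹
    simpa [mul_assoc] using this)
  have hk : j⁻¹ * lw lt u ∈ J := mul_mem (inv_mem hj) (m.le_J (by decide) (mem_sub h4))
  obtain rfl : x = MulAut.conj (j⁻¹ * lw lt u) (lt 80) := by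
    rw [MulAut.conj_apply, mul_inv_rev, mul_assoc j⁻¹, ← mul_assoc, mul_assoc j⁻¹, h3, ← h1]; group
  have hm : ∀ l, 1 ≤ l → l < 80 → MulAut.conj (j⁻¹ * lw lt u) (lt l) ∈ J := fun l a b =>
    hJ.conj_mem _ (m.mem l a b) _
  refine ⟨_, hm 30 (by omega) (by omega), _, hm 31 (by omega) (by omega), ?_, ?_, ?_, ?_, ?_, ?_, _,
    hm 32 (by omega) (by omega), ?_⟩ <;>
  simp only [← map_mul, ← map_pow, ← map_inv, ne_eq, MulEquiv.map_eq_one_iff,
    EmbeddingLike.apply_eq_iff_eq] <;> simp only [pow_succ, pow_zero, one_mul, mul_assoc, *]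
  simp only [*, not_false_eq_true]

theorem fx {H : Type} [Group H] [IsSimpleGroup H] (φ : J ≃* H)
    (hA : Nat.card (Cfsg.Out H) * Nat.card J ≤ Nat.card G) (lJ : checkLow D.c D.J = true)
    (ho : J = ⊤ ∨ D.ko = true) (k2 : D.k2 = true) (k3 : D.k3 = true) (k4 : D.k4 = true)
    (kP : D.all D.cP D.aP = true) (ke : allLt D.ea D.m = true) (k5 : D.k5 = true)
    (k6 : D.k6 = true) : ∃ F : H36.SW.Fx G, F.J = J := by
  simp only [Dt.k2, Dt.k3, Dt.k4, band_eq_true, Nat.beq_eq] at k2 k3 k4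
  obtain ⟨gT, gS, gU, gZ, gV, nU, nZ, nV, sT, sS, i7, eC, eJ⟩ := k2
  obtain ⟨kU, kT, kS, kV, kH⟩ := k4
  replace gT := m.gd gT
  replace gS := m.gd gS
  replace gU := m.gd gU
  replace gV := m.gd gV
  replace nU := (gU.card m.x m.K).trans nU
  replace nV := (gV.card m.x m.K).trans nV
  replace nZ := ((m.gd gZ).card m.x m.K).trans nZ
  replace sS := m.syl gS m.aX le_top sS
  replace eC := (m.grp eC).symm.trans (m.ce m.aJ k3.1).2
  replace eJ := (m.grp eJ).symm.trans (m.aJ.base_change m.x (fun s hs => by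
    obtain ⟨l, hl, rfl⟩ := List.mem_map.1 (eq_of_eqL _ _ eJ ▸ hs)
    exact ⟨_, m.le_J (by decide) (mem_cs lt hl), m.rep l⟩) lJ le_rfl).2
  have o : J = ⊤ ∨ (lt 80 ∉ J ∧ J.index = 2) ∧ cs lt VL ^ᶜ lt 80 ≤ cs lt UL := ho.imp_right fun e => by
    simp only [Dt.ko, band_eq_true, Nat.beq_eq] at e
    exact ⟨⟨m.aJ.not_mem_of_notMemb m.x e.1 (m.rep _),
      by rw [← relIndex_top_right, m.rel m.aJ m.aX le_top]; exact e.2.2.1⟩, m.nm e.2.1⟩
  have nJ : J.Normal := o.elim (fun e => e ▸ inferInstance) fun e => normal_of_index_eq_two e.1.2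
  have mC : ∀ g, g ∈ cs lt CL ↔ g ∈ J ∧ g * lt 1 = lt 1 * g := fun g => by
    rw [eC, mem_cent, List.forall_mem_singleton]
  simp only [Dt.k5, Dt.k6, Dt.ex, band_eq_true, bor_eq_true, bnot_eq_true, allL_iff, anyL_iff,
    m.ev.ew, m.ev.cm, m.ev.cj, lw_append, lw_rep, lw_cons, lw_nil, mul_one] at k5 k6
  obtain ⟨i2, cz, o7, n1, f2, nU', nV', nQ, yN, f1, gS', w8, cj, rot, rS, sh⟩ := k5
  obtain ⟨r1, r2, r3, r4, r5, r6, r7, r8, r9, r10, r11, r12, r13, r14, r15⟩ := k6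
  have iv : ∀ l ∈ SL ++ 9 :: GL, (lt l)⁻¹ = lt l := fun l hl => inv_eq_of_mul_eq_one_right (i2 l hl)
  have NU : cs lt NL ≤ J ⊓ 𝐍(cs lt UL) := le_inf m.le_J (cs_le fun l hl =>
    mem_normalizer_of_cj_le (m.nm (nU' l hl)))
  have NV : cs lt ML ≤ J ⊓ 𝐍(cs lt VL) := le_inf m.le_J (cs_le fun l hl =>
    mem_normalizer_of_cj_le (m.nm (nV' l hl)))
  have aU := fun u hu => m.all gU kU (g := u) hu
  have aT := fun u hu => m.all gT kT (g := u) hu
  have aV := fun u hu => m.all gV kV (g := u) hu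
  have aP := fun u (h1 : u * lt 1 = lt 1 * u) (h2 : u * lt 2 = lt 2 * u) =>
    m.all (m.ce m.aX k3.2.1).1 kP (g := u) (mem_cent.2 ⟨trivial, by simp [h1, h2]⟩)
  replace aU : ∀ u ∈ cs lt UL, u * u = 1 ∧ (u * lt 8 = lt 8 * u → u * lt 9 = lt 9 * u → u = 1 ∨ u = lt 1) ∧
      (u = 1 ∨ (∃ n ∈ cs lt NL, n * lt 1 * n⁻¹ = u) ∧ (u = lt 1 ∨
        (∃ n ∈ cs lt NL, n * lt 2 * n⁻¹ = u ∧ n * lt 1 = lt 1 * n) ∧ (u = lt 2 ∨ u = lt 1 * lt 2 ∨
        ∃ n ∈ cs lt NL, n * lt 3 * n⁻¹ = u ∧ n * lt 1 = lt 1 * n ∧ n * lt 2 = lt 2 * n))) :=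
    fun u hu => by
    obtain ⟨cl, e, h⟩ := aU u hu
    simp only [Dt.aU, Dt.ex, band_eq_true, bor_eq_true, bimp_eq_true, anyL_iff, h.ew, h.cm, h.cj,
      lw_cons, lw_nil, mul_one, update_self, ne_eq, OfNat.ofNat_ne_zero, one_ne_zero,
      not_false_eq_true, update_of_ne] at e
    exact ⟨e.1, e.2.1, e.2.2.imp_right (And.imp (fun ⟨_, _, a, b⟩ => ⟨_, mem_upd b, a⟩)
      (Or.imp_right (And.imp (fun ⟨_, _, a, b⟩ => ⟨_, mem_upd b, a⟩)
        (Or.imp_right (Or.imp_right fun ⟨_, _, a, b⟩ => ⟨_, mem_upd b, a⟩)))))⟩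
  replace aT : ∀ u ∈ cs lt TL, (u ^ 4 = 1 ∨ u ^ 4 = lt 1) ∧ (u * u = 1 → u = 1 ∨ u = lt 1 ∨
      ∃ n ∈ J, n * lt 1 = lt 1 * n ∧ (n * u * n⁻¹ = lt 2 ∨ n * u * n⁻¹ = lt 5)) := fun u hu => by
    obtain ⟨cl, e, h⟩ := aT u hu
    simp only [Dt.aT, Dt.ex, band_eq_true, bor_eq_true, bimp_eq_true, anyL_iff, h.ew, h.cj, lw_rep,
      lw_cons, lw_nil, mul_one, update_self, ne_eq, OfNat.ofNat_ne_zero, one_ne_zero,
      not_false_eq_true, update_of_ne] at e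
    exact ⟨e.1, fun k => (e.2 k).imp_right (Or.imp_right fun ⟨_, _, a, b⟩ =>
      ⟨_, ((mC _).1 (mem_upd b)).1, ((mC _).1 (mem_upd b)).2, a⟩)⟩
  replace aP : ∀ u, u * lt 1 = lt 1 * u → u * lt 2 = lt 2 * u → (u * lt 3 = lt 3 * u →
      u ∈ cs lt UL ∧ (u * lt 5 = lt 5 * u → u * lt 6 = lt 6 * u → u = 1 ∨ u = lt 1)) ∧
      ∀ a ∈ [2, 5], (∀ c ∈ J, c * lt 1 = lt 1 * c → c * lt a = lt a * c → u * c = c * u) →
        u = 1 ∨ u = lt 1 ∨ u = lt a ∨ u = lt 1 * lt a := fun u h1 h2 => by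
    obtain ⟨cl, e, h⟩ := aP u h1 h2
    simp only [Dt.aP, Dt.ex, band_eq_true, bor_eq_true, bimp_eq_true, bnot_eq_true, anyL_iff,
      allL_iff, h.ew, h.cm, lw_cons, lw_nil, mul_one, update_self, ne_eq, OfNat.ofNat_ne_zero,
      one_ne_zero, not_false_eq_true, update_of_ne] at e
    refine ⟨fun k => (e.1 k).imp_left fun ⟨_, _, a, b⟩ => a ▸ mem_upd b, fun a ha k => ?_⟩
    have := e.2 a ha
    rw [update_of_ne (by rintro rfl; simp at ha), ← or_assoc, ← or_assoc, ← or_assoc] at this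
    simpa only [or_assoc] using this.resolve_right fun ⟨_, _, a, b⟩ =>
      a.1 (k _ ((mC _).1 (mem_upd b)).1 ((mC _).1 (mem_upd b)).2 a.2)
  have cQ : ∀ g, g * lt 2 = lt 2 * g → g * lt 3 = lt 3 * g → g * lt 5 = lt 5 * g →
      g * lt 6 = lt 6 * g → g = 1 ∨ g = lt 1 := fun g h2 h3 h5 h6 => ((aP g (by
    rw [← inv_mul_eq_iff_eq_mul.2 r8]
    exact (Commute.inv_right h3).mul_right (Commute.mul_right h5 (Commute.mul_right h3 h5)))
      h2).1 h3).2 h5 h6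
  have j := m.mem
  have zq : lt 2 * lt 1 = lt 1 * lt 2 := cz 2 (by decide)
  have mJ : ∀ {u}, Dt.sub u JL = true → lw lt u ∈ J := fun e => m.le_J (by decide) (mem_sub e)
  refine ⟨{
    J := J, U := cs lt UL, V := cs lt VL, Q := cs lt [2, 3, 5, 6], T := cs lt TL
    S := {g | g ∈ List.map lt GL}, z := lt 1, q := lt 2, r := lt 3, w := lt 4, y1 := lt 5
    y2 := lt 6, h := lt 7, ρ := lt 8, s := lt 9, d := lt 10, nJ := nJ, simple := φ.isSimpleGroup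
    sq := fun a ha b hb => (mul_mem_iff_of_index_two
      (o.resolve_left fun e => ha (e ▸ mem_top a)).1.2).2 (iff_of_false ha hb)
    aut := fun ψ => ?aut
    syl := m.syl gT m.aJ m.le_J sT
    zT := mem_cs lt (by decide), qT := mem_cs lt (by decide), rT := mem_cs lt (by decide)
    wT := mem_cs lt (by decide), y1T := mem_cs lt (by decide), y2T := mem_cs lt (by decide)
    hJ := j _ (by decide) (by decide), ρJ := j _ (by decide) (by decide)
    sJ := j _ (by decide) (by decide), dJ := j _ (by decide) (by decide)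
    cT := fun a ha => mem_centralizer_singleton_iff.1 (cs_le (fun l hl =>
      mem_centralizer_singleton_iff.2 (cz l (List.mem_append_left _ hl))) ha)
    genT := cs_le fun l hl => Subgroup.subset_closure ⟨mem_cs lt hl, i2 l (by revert l; decide)⟩
    p4 := fun a ha => (aT a ha).1
    w8 := let ⟨_, _, a, b⟩ := w8; ⟨_, mem_sub b, by rw [← a]; simp only [pow_succ, pow_zero, one_mul]⟩
    allT := fun a ha => (aT a ha).2
    hU := cs_eq (by ext; simp), hQ := cs_eq (by ext; simp), U2 := fun u hu => (aU u hu).1, cU := nU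
    cU0 := by rw [← nZ, cs_eq]; ext; simp
    z1 := n1 _ (by decide), q1 := n1 _ (by decide), qz := r12, r1 := n1 _ (by decide), rz := r13
    rq := r14, rzq := r15
    tr1 := fun u hu h1 => let ⟨n, a, b⟩ := ((aU u hu).2.2.resolve_left h1).1
      ⟨n, (NU a).1, (NU a).2, b⟩
    tr2 := fun u hu h1 h2 => let ⟨n, a, b⟩ := (((aU u hu).2.2.resolve_left h1).2.resolve_left h2).1
      ⟨n, (NU a).1, (NU a).2, b.2, b.1⟩
    tr3 := fun u hu h1 h2 h3 h4 => let ⟨n, a, b⟩ := ((((aU u hu).2.2.resolve_left h1).2.resolve_left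
      h2).2.resolve_left h3).resolve_left h4; ⟨n, (NU a).1, (NU a).2, b.2.1, b.2.2, b.1⟩
    cpqr := fun g h1 h2 h3 => ((aP g h1 h2).1 h3).1
    ea := fun A h1 h2 => ?ea
    VJ := m.le_J, cV := nV
    mvV := fun v hv h1 => ?mv
    VU := o.imp_right fun e => ⟨_, eq_of_le_of_card_ge e.2 (by rw [card_cj, nU, nV])⟩
    outex := o.imp_right fun e => ⟨_, e.1.1, i2 _ (by decide)⟩
    out := fun x hx => m.out nJ sS (o.resolve_left fun e => hx (e ▸ mem_top x)).1 gS kS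
      (ho.resolve_left fun e => hx (e ▸ mem_top x)) x hx
    c7 := m.c7 (m.ce m.aX k3.2.2).1 i7 kH
    f1 := fun c h1 h2 => cs_le (fun l hl => let ⟨_, _, a, b⟩ := f1 l hl; a ▸ cs_le (fun l hl => by
      exact Subgroup.subset_closure ⟨m.le_J (by decide) (mem_cs lt hl),
        cz l (List.mem_append_right _ hl), o7 l (List.mem_cons_of_mem _ hl)⟩) (mem_sub b)) ((mC c).2 ⟨h1, h2⟩)
    f2 := eJ.ge.trans (cs_le fun l hl => let ⟨_, _, a, b⟩ := gS' l hl; a ▸ cs_le (fun l hl => by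
      exact Subgroup.subset_closure ⟨m.le_J (by decide) (mem_cs lt hl), by
        rw [iv l (by revert l; decide), mul_assoc (lt l) (lt 1)]; exact f2 l hl⟩) (mem_sub b))
    hN := (NU (mem_cs lt (by decide))).2, ρN := (NU (mem_cs lt (by decide))).2
    sN := (NU (mem_cs lt (by decide))).2, hz := ((mC _).1 (mem_cs lt (by decide))).2
    ρz := ((mC _).1 (mem_cs lt (by decide))).2, sz := ((mC _).1 (mem_cs lt (by decide))).2
    dz := ((mC _).1 (mem_cs lt (by decide))).2, h1 := n1 _ (by decide), h7 := o7 _ (by decide)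
    ρ3 := r1, s2 := i2 _ (by decide), d3 := r2, ρh := r3
    sρ := by rw [mul_inv_eq_iff_eq_mul, eq_inv_mul_iff_mul_eq, r4]
    cρs := fun u hu => (aU u hu).2.1
    sh := let ⟨i, _, a⟩ := sh; ⟨i, by rw [pow_three, a]⟩
    dN := mem_normalizer_of_cj_le (m.nm nQ)
    y1N := let ⟨_, _, a, b⟩ := yN 5 (by decide); a ▸ (cs_eq (by ext; simp)).le (mem_sub b)
    y2N := let ⟨_, _, a, b⟩ := yN 6 (by decide); a ▸ (cs_eq (by ext; simp)).le (mem_sub b)
    genC := fun c h1 h2 => (cs_eq (by ext; simp)).le ((mC c).2 ⟨h1, h2⟩)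
    cQ := cQ
    cF1 := fun g h => (aP g (h _ (j _ (by decide) (by decide)) rfl zq.symm)
      (h _ (j _ (by decide) (by decide)) zq rfl)).2 2 (by decide) h
    cF2 := fun g h => (aP g (h _ (j _ (by decide) (by decide)) rfl (cz 5 (by decide)).symm)
      (h _ (j _ (by decide) (by decide)) zq r6)).2 5 (by decide) h
    rot2 := let ⟨_, _, a, b⟩ := rot; ⟨_, mJ b, a⟩
    y11 := i2 _ (by decide), y22 := i2 _ (by decide), y12 := r5, qy1 := r6, ry2 := r7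
    ry1 := (mul_assoc ..).trans r8, qy2 := (mul_assoc ..).trans r9, wy1 := (mul_assoc ..).trans r10
    wy2 := (mul_assoc ..).trans r11
    cj1 := let ⟨_, _, a, b⟩ := cj [5] (by decide); ⟨_, mJ b, a.1, a.2.trans (lw_one _)⟩
    cj2 := let ⟨_, _, a, b⟩ := cj [6] (by decide); ⟨_, mJ b, a.1, a.2.trans (lw_one _)⟩
    cj3 := let ⟨_, _, a, b⟩ := cj [5, 6] (by decide); ⟨_, mJ b, a.1, by rw [a.2, lw_cons, lw_one]⟩
    genS := eJ.ge.trans (cs_le fun l hl => let ⟨_, _, a, b⟩ := gS' l hl; a ▸ mem_sub b)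
    invS := fun a ha => let ⟨l, hl, e⟩ := List.mem_map.1 ha
      e ▸ ⟨m.le_J (by decide) (mem_cs lt hl), i2 l (by clear e; revert l; decide),
        n1 l (by clear e; revert l; decide)⟩
    relS := fun a ha b hb => let ⟨l, hl, e⟩ := List.mem_map.1 ha; let ⟨k, hk, e'⟩ := List.mem_map.1 hb
      e ▸ e' ▸ (rS l hl k hk).imp_right fun ⟨_, _, a, b⟩ => ⟨_, mJ b, a⟩ }, rfl⟩
  case ea =>
    obtain ⟨g, hg, h⟩ := m.cj_le sS (o.imp_right And.left)
      (R := A) fun a => ⟨1, Subtype.ext (by simpa [pow_two] using h1 a a.2)⟩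
    refine ⟨g, hg, (m.ea gS kS ke h (fun a ha => ?_) (by rwa [card_cj])).imp
      (fun e => eq_of_le_of_card_ge e (by rwa [card_cj, nU]))
      fun e => eq_of_le_of_card_ge e (by rwa [card_cj, nV])⟩
    obtain ⟨a, ha', rfl⟩ := mem_cj'.1 ha
    rw [conj_mul, h1 a ha', mul_one, mul_inv_cancel]
  case mv =>
    obtain ⟨cl, e, h⟩ := aV v hv
    simp only [Dt.aV, Dt.ex, band_eq_true, bor_eq_true, bnot_eq_true, anyL_iff, h.ew, h.cm,
      lw_one, lw_nil, update_self] at e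
    obtain ⟨_, _, a, b⟩ := e.resolve_left h1
    exact ⟨_, (NV (mem_upd b)).1, (NV (mem_upd b)).2, a⟩
  case aut =>
    have hi : Injective (MulAut.conjNormal : G →* MulAut J) := (injective_iff_map_eq_one _).2
      fun g hg => by
      have c : ∀ x ∈ J, g * x = x * g := fun x hx => mul_inv_eq_iff_eq_mul.1
        (congrArg Subtype.val (DFunLike.congr_fun hg ⟨x, hx⟩) :)
      refine (cQ g (c _ (j _ (by decide) (by decide))) (c _ (j _ (by decide) (by decide)))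
        (c _ (j _ (by decide) (by decide))) (c _ (j _ (by decide) (by decide)))).resolve_right ?_
      rintro rfl
      obtain ⟨n, a, b⟩ := ((aU _ (mem_cs lt (l := 2) (by decide))).2.2.resolve_left
        (n1 _ (by decide))).1
      exact r12 (by rw [← b, ← c n (NU a).1, mul_inv_cancel_right])
    have : Finite H := .of_equiv _ φ.toEquiv
    obtain ⟨x, hx⟩ := ((Nat.bijective_iff_injective_and_card _).2 ⟨hi, le_antisymm
      (Nat.card_le_card_of_injective _ hi) (le_trans (by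
        rw [Nat.card_congr (MulAut.congr φ).toEquiv, Nat.card_congr φ.toEquiv,
          card_eq_card_quotient_mul_card_subgroup (Cfsg.Inn H)]
        exact Nat.mul_le_mul_left _ (Nat.card_le_card_of_surjective _
          (MonoidHom.rangeRestrict_surjective _))) hA)⟩).2 ψ
    exact ⟨x, fun k => by rw [← hx]; rfl⟩

end Md

end H92.SW
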